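import Cfsg.Agent.H8.Gleason
import Cfsg.Agent.H8.Basic
import Cfsg.Agent.H3.Hv1

/-! Sharply `4`-transitive groups (Jordan, Tits, Hall). -/

namespace CfsgL0
open Function Subgroup MulAction CfsgH2

variable {G Ω : Type*} [Group G] [MulAction G Ω] {a b c d p q x y : Ω} {g k t u : G}

def D4 (a b c d : Ω) : Prop := a ≠ b ∧ a ≠ c ∧ a ≠ d ∧ b ≠ c ∧ b ≠ d ∧ c ≠ d

structure S4T (G Ω : Type*) [Group G] [MulAction G Ω] : Prop where
  tr : ∀ {a b c d a' b' c' d' : Ω}, D4 a b c d → D4 a' b' c' d' →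
    ∃ g : G, g • a = a' ∧ g • b = b' ∧ g • c = c' ∧ g • d = d'
  sh : ∀ {g : G} {a b c d : Ω}, D4 a b c d → g • a = a → g • b = b → g • c = c → g • d = d → g = 1

/-- `t = (a b)(c)(d)`, `u = (a)(b)(c d)`. -/
structure TU (t u : G) (a b c d : Ω) : Prop where
  d4 : D4 a b c d
  ta : t • a = b
  tb : t • b = a
  tc : t • c = c
  td : t • d = d
  ua : u • a = a
  ub : u • b = b
  uc : u • c = d
  ud : u • d = c

namespace S4T
variable (h : S4T G Ω)
include h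

theorem ext (hd : D4 a b c d) (h1 : g • a = k • a) (h2 : g • b = k • b) (h3 : g • c = k • c) (h4 : g • d = k • d) :
    g = k :=
  (inv_mul_eq_one.1 (h.sh hd (by simp [mul_smul, h1]) (by simp [mul_smul, h2]) (by simp [mul_smul, h3])
    (by simp [mul_smul, h4]))).symm

theorem finite [Finite Ω] (hd : D4 a b c d) : Finite G :=
  Finite.of_injective (fun g : G => (g • a, g • b, g • c, g • d)) fun g k e => by
    simp only [Prod.mk.injEq] at e
    exact h.ext hd e.1 e.2.1 e.2.2.1 e.2.2.2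

theorem third (hc : t * u = u * t) (t1 : t ≠ 1) (cd : c ≠ d) (h1 : t • c = c) (h2 : t • d = d) (h3 : u • c = d)
    (h4 : u • d = c) (h5 : x ≠ c) (h6 : x ≠ d) (h7 : t • x = x) : u • x = x := by
  by_contra n
  refine t1 (h.sh (a := c) (b := d) (c := x) (d := u • x) ⟨cd, h5.symm, ?_, h6.symm, ?_, Ne.symm n⟩ h1 h2 h7 ?_)
  · rw [← h4]; simpa using h6.symm
  · rw [← h3]; simpa using h5.symm
  · rw [smul_smul, hc, ← smul_smul, h7]

theorem exists_tu (hd : D4 a b c d) : ∃ t u : G, TU t u a b c d := by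
  obtain ⟨h1, h2, h3, h4, h5, h6⟩ := id hd
  obtain ⟨t, ht⟩ := h.tr hd (⟨h1.symm, h4, h5, h2, h3, h6⟩ : D4 b a c d)
  obtain ⟨u, hu⟩ := h.tr hd (⟨h1, h3, h2, h5, h4, h6.symm⟩ : D4 a b d c)
  exact ⟨t, u, hd, ht.1, ht.2.1, ht.2.2.1, ht.2.2.2, hu.1, hu.2.1, hu.2.2.1, hu.2.2.2⟩

variable (v : TU t u a b c d)
include v

omit h in
theorem t1 : t ≠ 1 := fun e => v.d4.1 (by simpa [e] using v.ta)

omit h in
theorem u1 : u ≠ 1 := fun e => v.d4.2.2.2.2.2 (by simpa [e] using v.uc)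

omit h in
theorem w1 : t * u ≠ 1 := fun e => v.d4.1 (by rw [← v.ta, ← congrArg (t • ·) v.ua, smul_smul, e, one_smul])

theorem t2 : t * t = 1 := h.sh v.d4 (by simp [mul_smul, v.ta, v.tb]) (by simp [mul_smul, v.ta, v.tb])
  (by simp [mul_smul, v.tc]) (by simp [mul_smul, v.td])

theorem u2 : u * u = 1 := h.sh v.d4 (by simp [mul_smul, v.ua]) (by simp [mul_smul, v.ub])
  (by simp [mul_smul, v.uc, v.ud]) (by simp [mul_smul, v.uc, v.ud])

theorem comm : t * u = u * t := h.ext v.d4 (by simp [mul_smul, v.ta, v.ua, v.ub]) (by simp [mul_smul, v.tb, v.ua, v.ub])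
  (by simp [mul_smul, v.tc, v.td, v.uc]) (by simp [mul_smul, v.tc, v.td, v.ud])

theorem cent (h1 : k * t = t * k) (h2 : k * u = u * k) : k = 1 ∨ k = t ∨ k = u ∨ k = t * u := by
  obtain ⟨d1, d2, d3, d4, d5, d6⟩ := v.d4
  have e1 : k • d = u • k • c := by rw [smul_smul, ← h2, ← smul_smul, v.uc]
  have e2 : k • b = t • k • a := by rw [smul_smul, ← h1, ← smul_smul, v.ta]
  have f1 : k • c = c ∨ k • c = d := by
    by_contra! n
    have := h.third (h.comm v) (t1 v) d6 v.tc v.td v.uc v.ud n.1 n.2 (by rw [smul_smul, ← h1, ← smul_smul, v.tc])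
    exact d6 (smul_left_cancel k (e1.trans this).symm)
  have f2 : k • a = a ∨ k • a = b := by
    by_contra! n
    have := h.third (h.comm v).symm (u1 v) d1 v.ua v.ub v.ta v.tb n.1 n.2 (by rw [smul_smul, ← h2, ← smul_smul, v.ua])
    exact d1 (smul_left_cancel k (e2.trans this).symm)
  rcases f1 with f1 | f1 <;> rcases f2 with f2 | f2 <;> rw [f1] at e1 <;> rw [f2] at e2
  · exact .inl (h.sh v.d4 f2 (e2.trans v.ta) f1 (e1.trans v.uc))
  · exact .inr (.inl (h.ext v.d4 (by rw [f2, v.ta]) (by rw [e2]) (by rw [f1, v.tc]) (by rw [e1, v.uc, v.td])))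
  · exact .inr (.inr (.inl (h.ext v.d4 (by rw [f2, v.ua]) (by rw [e2, v.ta, v.ub]) (by rw [f1, v.uc]) (by rw [e1]))))
  · exact .inr (.inr (.inr (h.ext v.d4 (by rw [f2, mul_smul, v.ua, v.ta]) (by rw [e2, mul_smul, v.ub])
      (by rw [f1, mul_smul, v.uc, v.td]) (by rw [e1, mul_smul, v.ud, v.tc]))))

theorem exists_p (big : ∀ s : Finset Ω, s.card ≤ 6 → ∃ x, x ∉ s) : ∃ p : Ω, (t * u) • p = p ∧ t • p ≠ p := by
  classical
  obtain ⟨d1, d2, d3, d4, d5, d6⟩ := v.d4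
  obtain ⟨x, x1, x2, x3⟩ : ∃ x, x ≠ a ∧ x ≠ b ∧ t • x ≠ x := by
    by_contra! n
    obtain ⟨e, he⟩ := big {a, b, c, d} (Finset.card_le_four.trans (by omega))
    obtain ⟨f, hf⟩ := big {e, a, b, c, d} ((Finset.card_insert_le _ _).trans (by
      have := Finset.card_le_four (a := a) (b := b) (c := c) (d := d); omega))
    simp only [Finset.mem_insert, Finset.mem_singleton, not_or] at he hf
    exact t1 v (h.sh (a := c) (b := d) (c := e) (d := f) ⟨d6, Ne.symm he.2.2.1, Ne.symm hf.2.2.2.1, Ne.symm he.2.2.2,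
      Ne.symm hf.2.2.2.2, Ne.symm hf.1⟩ v.tc v.td (n e he.1 he.2.1) (n f hf.2.1 hf.2.2.1))
  have hd : D4 a b x (t • x) := ⟨d1, x1.symm, by rw [← v.tb]; simpa using x2.symm, x2.symm,
    by rw [← v.ta]; simpa using x1.symm, x3.symm⟩
  obtain ⟨g, g1, g2, g3, g4⟩ := h.tr hd v.d4
  have e : g * t = t * u * g := h.ext hd (by simp [mul_smul, g1, g2, v.ta, v.ua]) (by simp [mul_smul, g1, g2, v.tb, v.ub])
    (by simp [mul_smul, g3, g4, v.td, v.uc]) (by rw [mul_smul, smul_smul t, h.t2 v, mul_smul, mul_smul, g4, one_smul, g3,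
      v.ud, v.tc])
  have f1 : (t * u) • g • c = g • c := by rw [smul_smul, ← e, mul_smul, v.tc]
  have f2 : (t * u) • g • d = g • d := by rw [smul_smul, ← e, mul_smul, v.td]
  by_contra! n
  have n1 : ∀ y, (t * u) • y = y → c ≠ y := fun y e e1 => d6 (by rwa [← e1, mul_smul, v.uc, v.td, eq_comm] at e)
  have n2 : ∀ y, (t * u) • y = y → d ≠ y := fun y e e1 => d6 (by rwa [← e1, mul_smul, v.ud, v.tc] at e)
  exact t1 v (h.sh ⟨d6, n1 _ f1, n1 _ f2, n2 _ f1, n2 _ f2, by simpa using d6⟩ v.tc v.td (n _ f1) (n _ f2))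

theorem reg_d4 (h1 : t • x ≠ x) (h2 : u • x ≠ x) (h3 : (t * u) • x ≠ x) : D4 x (t • x) (u • x) ((t * u) • x) := by
  refine ⟨h1.symm, h2.symm, h3.symm, fun e => h3 ?_, fun e => h2 ?_, fun e => h1 ?_⟩
  · rw [mul_smul, ← e, smul_smul, h.t2 v, one_smul]
  · rw [mul_smul] at e
    exact (smul_left_cancel t e).symm
  · rw [h.comm v, mul_smul] at e
    exact (smul_left_cancel u e).symm

theorem exists_s (h1 : t • x ≠ x) (h2 : u • x ≠ x) (h3 : (t * u) • x ≠ x) : ∃ s : G, s * s = 1 ∧ s * t = t * s ∧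
    s * u = t * u * s ∧ s • x = x ∧ s ≠ 1 := by
  have hd := h.reg_d4 v h1 h2 h3
  obtain ⟨d1, d2, d3, d4, d5, d6⟩ := id hd
  obtain ⟨s, s1, s2, s3, s4⟩ := h.tr hd (⟨d1, d3, d2, d5, d4, d6.symm⟩ : D4 x (t • x) ((t * u) • x) (u • x))
  have t2 : ∀ y : Ω, t • t • y = y := fun y => by rw [smul_smul, h.t2 v, one_smul]
  have u2 : ∀ y : Ω, u • u • y = y := fun y => by rw [smul_smul, h.u2 v, one_smul]
  have c : ∀ y : Ω, u • t • y = t • u • y := fun y => by rw [smul_smul, ← h.comm v, mul_smul]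
  rw [mul_smul] at s3 s4
  refine ⟨s, h.sh hd ?_ ?_ ?_ ?_, h.ext hd ?_ ?_ ?_ ?_, h.ext hd ?_ ?_ ?_ ?_, s1, fun e => d6 ?_⟩
  all_goals try simp only [mul_smul, s1, s2, s3, s4, t2, u2, c]
  simpa [e] using s3

theorem reg_unique (h1 : t • x ≠ x) (h2 : u • x ≠ x) (h3 : (t * u) • x ≠ x) (k1 : t • y ≠ y) (k2 : u • y ≠ y)
    (k3 : (t * u) • y ≠ y) : y = x ∨ y = t • x ∨ y = u • x ∨ y = (t * u) • x := by
  by_contra! n
  obtain ⟨s, s1, s2, s3, s4, s5⟩ := h.exists_s v h1 h2 h3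
  obtain ⟨r, r1, r2, r3, r4, -⟩ := h.exists_s v k1 k2 k3
  have t2 := h.t2 v
  have u2 := h.u2 v
  have c := h.comm v
  have tt : ∀ y : Ω, t • t • y = y := fun y => by rw [smul_smul, t2, one_smul]
  have aux : ∀ z : Ω, t • z ≠ z → z ≠ x → z ≠ t • x → s • z = z → False := fun z z1 z2 z3 z4 =>
    s5 (h.sh (a := x) (b := t • x) (c := z) (d := t • z) ⟨h1.symm, z2.symm, fun e => z3 (by rw [e, tt]), z3.symm,
      by simpa using z2.symm, z1.symm⟩ s4 (by rw [smul_smul, s2, mul_smul, s4]) z4 (by rw [smul_smul, s2, mul_smul, z4]))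
  have r5 : r * (t * u) = u * r := by rw [← mul_assoc, r2, mul_assoc, r3, ← mul_assoc, ← mul_assoc, t2, one_mul]
  have e : ∀ k, s * r = k → s = k * r := fun k e => by rw [← e, mul_assoc, r1, mul_one]
  rcases h.cent v (k := s * r) (by rw [mul_assoc, r2, ← mul_assoc, s2, mul_assoc]) (by
    rw [mul_assoc, r3, ← mul_assoc, ← mul_assoc, s2, mul_assoc t, s3, ← mul_assoc, ← mul_assoc, t2, one_mul, mul_assoc])
    with f | f | f | f <;> replace f := e _ f
  · exact aux y k1 n.1 n.2.1 (by rw [f, one_mul, r4])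
  · refine aux (u • y) (by rw [smul_smul]; exact (h.reg_d4 v k1 k2 k3).2.2.2.2.2.symm) (fun e => n.2.2.1 ?_)
      (fun e => n.2.2.2 ?_) ?_
    · rw [← e, smul_smul, u2, one_smul]
    · rw [c, mul_smul, ← e, smul_smul, u2, one_smul]
    · rw [f, mul_smul, smul_smul r, r3, mul_smul, r4, mul_smul, tt]
  · refine t1 v ?_
    rw [← s1, f, mul_assoc, ← mul_assoc r, r3, mul_assoc, r1, mul_one, c, ← mul_assoc, u2, one_mul]
  · refine t1 v ?_
    rw [← s1, f, mul_assoc, ← mul_assoc r, r5, mul_assoc u, r1, mul_one, mul_assoc, u2, mul_one]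

theorem cases (hp : (t * u) • p = p) (hp' : t • p ≠ p) (x : Ω) : x ∈ [a, b, c, d, p, t • p] ∨ (t • x = x ∧ u • x = x) ∨
    (t • x ≠ x ∧ u • x ≠ x ∧ (t * u) • x ≠ x) := by
  by_contra! n
  obtain ⟨n0, n1, n2⟩ := n
  simp only [List.mem_cons, List.not_mem_nil, or_false, not_or] at n0
  have c := h.comm v
  by_cases e1 : t • x = x
  · exact n1 e1 (h.third c (t1 v) v.d4.2.2.2.2.2 v.tc v.td v.uc v.ud n0.2.2.1 n0.2.2.2.1 e1)
  by_cases e2 : u • x = x
  · exact e1 (h.third c.symm (u1 v) v.d4.1 v.ua v.ub v.ta v.tb n0.1 n0.2.1 e2)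
  have c1 : t * u * t = t * (t * u) := by rw [mul_assoc, c]
  exact e1 (h.third c1 (w1 v) hp'.symm hp (by rw [smul_smul, c1, mul_smul, hp]) rfl
    (by rw [smul_smul, h.t2 v, one_smul]) n0.2.2.2.2.1 n0.2.2.2.2.2 (n2 e1 e2))

omit h in
theorem fix_ne (h1 : t • x = x) (h2 : u • x = x) : c ≠ x ∧ d ≠ x :=
  ⟨fun e => v.d4.2.2.2.2.2 (by rw [← v.uc, e, h2]), fun e => v.d4.2.2.2.2.2 (by rw [← v.ud, e, h2])⟩

theorem cover (big : ∀ s : Finset Ω, s.card ≤ 6 → ∃ x, x ∉ s) :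
    Finite Ω ∧ (Nat.card Ω ≤ 7 ∨ (10 ≤ Nat.card Ω ∧ Nat.card Ω ≤ 11)) := by
  classical
  obtain ⟨p, hp, hp'⟩ := h.exists_p v big
  obtain ⟨f, hf⟩ : ∃ f : Ω, ∀ x, t • x = x → u • x = x → x = f := by
    by_cases e : ∃ f : Ω, t • f = f ∧ u • f = f
    · obtain ⟨f, f1, f2⟩ := e
      exact ⟨f, fun x x1 x2 => by_contra fun n => t1 v (h.sh ⟨v.d4.2.2.2.2.2, (fix_ne v x1 x2).1, (fix_ne v f1 f2).1,
        (fix_ne v x1 x2).2, (fix_ne v f1 f2).2, n⟩ v.tc v.td x1 f1)⟩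
    · exact ⟨a, fun x x1 x2 => absurd ⟨x, x1, x2⟩ e⟩
  have key : ∀ l : List Ω, (∀ x, x ∈ l) → Finite Ω ∧ Nat.card Ω ≤ l.length := fun l hl => by
    have := Fintype.ofList l hl
    refine ⟨inferInstance, ?_⟩
    rw [Nat.card_eq_fintype_card, ← Finset.card_univ, ← Finset.eq_univ_of_forall fun x => List.mem_toFinset.2 (hl x)]
    exact l.toFinset_card_le
  by_cases e : ∃ x : Ω, t • x ≠ x ∧ u • x ≠ x ∧ (t * u) • x ≠ x
  · obtain ⟨x, x1, x2, x3⟩ := e
    obtain ⟨h1, h2⟩ := key ([a, b, c, d, p, t • p] ++ [f, x, t • x, u • x, (t * u) • x]) fun y => by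
      rcases h.cases v hp hp' y with e | e | e
      · exact List.mem_append_left _ e
      · simp [hf y e.1 e.2]
      · exact List.mem_append_right _ (List.mem_cons_of_mem _ (by
          simpa using h.reg_unique v x1 x2 x3 e.1 e.2.1 e.2.2))
    refine ⟨h1, .inr ⟨?_, h2⟩⟩
    have := Fintype.ofFinite Ω
    have cm := h.comm v
    have hq : (t * u) • t • p = t • p := by rw [smul_smul, mul_assoc, ← cm, mul_smul, hp]
    have : (([a, b, c, d] ++ [p, t • p]) ++ [x, t • x, u • x, (t * u) • x]).Nodup := by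
      obtain ⟨d1, d2, d3, d4, d5, d6⟩ := v.d4
      obtain ⟨e1, e2, e3, e4, e5, e6⟩ := h.reg_d4 v x1 x2 x3
      refine List.Nodup.append (List.Nodup.append (by simp [d1, d2, d3, d4, d5, d6]) (by simp [hp'.symm])
        fun y h1 h2 => ?_) (by simp [e1, e2, e3, e4, e5, e6]) fun y h1 h2 => ?_
      · have : (t * u) • y = y := by
          simp only [List.mem_cons, List.not_mem_nil, or_false] at h2
          rcases h2 with rfl | rfl <;> assumption
        simp only [List.mem_cons, List.not_mem_nil, or_false] at h1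
        rcases h1 with rfl | rfl | rfl | rfl <;>
          simp [mul_smul, v.ta, v.tb, v.tc, v.td, v.ua, v.ub, v.uc, v.ud, d1, d6, d1.symm, d6.symm] at this
      · have h3 : t • y = y ∨ u • y = y ∨ (t * u) • y = y := by
          simp only [List.cons_append, List.nil_append, List.mem_cons, List.not_mem_nil, or_false] at h1
          rcases h1 with rfl | rfl | rfl | rfl | rfl | rfl <;> simp [v.tc, v.td, v.ua, v.ub, hp, hq]
        have h4 : ∀ g : G, g * t = t * g → g * u = u * g → y = g • x → False := fun g g1 g2 e => by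
          rw [e, smul_smul, smul_smul, smul_smul, mul_assoc, ← g1, ← g2, ← mul_assoc, ← g1, mul_assoc, mul_smul, mul_smul,
            mul_smul g] at h3
          simp [x1, x2, x3] at h3
        simp only [List.mem_cons, List.not_mem_nil, or_false] at h2
        rcases h2 with e | e | e | e
        · exact h4 1 (by simp) (by simp) (by simpa using e)
        · exact h4 t rfl cm e
        · exact h4 u cm.symm rfl e
        · exact h4 _ (by rw [mul_assoc, cm]) (by rw [← mul_assoc, cm]) e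
    simpa using this.length_le_card
  · obtain ⟨h1, h2⟩ := key ([a, b, c, d, p, t • p] ++ [f]) fun y => by
      rcases h.cases v hp hp' y with e1 | e1 | e1
      · exact List.mem_append_left _ e1
      · simp [hf y e1.1 e1.2]
      · exact absurd ⟨y, e1⟩ e
    exact ⟨h1, .inl h2⟩

theorem fix_card [Finite Ω] : Nat.card Ω ≡ Nat.card (fixedBy Ω t) [MOD 2] ∧ Nat.card (fixedBy Ω t) ≤ 3 := by
  refine ⟨CfsgH8.card_modEq_card_fixedBy Nat.prime_two (k := 1) (by rw [pow_one, pow_two, h.t2 v]), ?_⟩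
  by_contra! n
  rw [Nat.card_coe_set_eq, Set.three_lt_ncard] at n
  obtain ⟨a, h1, b, h2, c, h3, d, h4, n⟩ := n
  exact t1 v (h.sh n h1 h2 h3 h4)

theorem third_odd [Finite Ω] (ho : Odd (Nat.card Ω)) : ∃ x, x ≠ c ∧ x ≠ d ∧ t • x = x := by
  by_contra! n
  have h1 := (h.fix_card v).1
  rw [show fixedBy Ω t = {c, d} from Set.ext fun x => ⟨fun e => by_contra fun n1 => n x (fun e => n1 (.inl e))
    (fun e => n1 (.inr e)) e, by rintro (rfl | rfl); exacts [v.tc, v.td]⟩, Nat.card_coe_set_eq,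
    Set.ncard_pair v.d4.2.2.2.2.2] at h1
  rw [Nat.odd_iff] at ho
  unfold Nat.ModEq at h1
  omega

theorem two_even [Finite Ω] (he : Even (Nat.card Ω)) (hx : t • x = x) : x = c ∨ x = d := by
  by_contra! n
  obtain ⟨h1, h2⟩ := h.fix_card v
  have : 2 < Nat.card (fixedBy Ω t) := by
    rw [Nat.card_coe_set_eq, Set.two_lt_ncard]
    exact ⟨c, v.tc, d, v.td, x, hx, v.d4.2.2.2.2.2, n.1.symm, n.2.symm⟩
  rw [Nat.even_iff] at he
  unfold Nat.ModEq at h1
  omega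

theorem inv_even [Finite Ω] (he : Even (Nat.card Ω)) (h1 : g • a = a) (h2 : g • b = b) (h3 : g • c = c) :
    t * g * t⁻¹ = g⁻¹ := by
  have := h.finite v.d4
  refine CfsgHv.inverts_of_fpf (N := stabilizer G a ⊓ stabilizer G b ⊓ stabilizer G c) (h.t2 v)
    (mem_norm_of_conj fun k hk => ?_) (eq_bot_iff.2 fun k hk => ?_) ⟨⟨h1, h2⟩, h3⟩
  · obtain ⟨⟨k1, k2⟩, k3⟩ := hk
    rw [inv_eq_of_mul_eq_one_right (h.t2 v)]
    simp [mul_smul, v.ta, v.tb, v.tc, show k • a = a from k1, show k • b = b from k2, show k • c = c from k3]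
  · obtain ⟨⟨⟨k1, k2⟩, k3⟩, k4⟩ := hk
    refine h.sh v.d4 k1 k2 k3 ((h.two_even v he ?_).resolve_left fun e => v.d4.2.2.2.2.2 ?_)
    · rw [smul_smul, ← mem_centralizer_singleton_iff.1 k4, mul_smul, v.td]
    · exact smul_left_cancel k (Eq.trans k3 e.symm)

omit v

theorem le_of_even [Finite Ω] (he : Even (Nat.card Ω)) : Nat.card Ω ≤ 6 := by
  classical
  by_contra! n
  have := Fintype.ofFinite Ω
  obtain ⟨f⟩ := Embedding.nonempty_of_card_le (α := Fin 7) (β := Ω) (by rwa [Fintype.card_fin, ← Nat.card_eq_fintype_card])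
  have ne : ∀ i j, i ≠ j → f i ≠ f j := fun i j => f.injective.ne
  have d4 : ∀ i j k l, D4 i j k l → D4 (f i) (f j) (f k) (f l) := fun i j k l e =>
    ⟨ne _ _ e.1, ne _ _ e.2.1, ne _ _ e.2.2.1, ne _ _ e.2.2.2.1, ne _ _ e.2.2.2.2.1, ne _ _ e.2.2.2.2.2⟩
  obtain ⟨t, u, v⟩ := h.exists_tu (d4 0 1 2 3 (by simp [D4]))
  obtain ⟨r, s, w⟩ := h.exists_tu (d4 1 2 0 3 (by simp [D4]))
  have : ∀ i, D4 0 1 2 i → (t * r) • f i = f i := fun i hi => by
    obtain ⟨g, g1, g2, g3, g4⟩ := h.tr v.d4 (d4 _ _ _ _ hi)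
    have e1 := h.inv_even w he g2 g3 g1
    have e2 := h.inv_even v he (g := g⁻¹) (inv_smul_eq_iff.2 g1.symm) (inv_smul_eq_iff.2 g2.symm) (inv_smul_eq_iff.2 g3.symm)
    have : t * r * g = g * (t * r) := by
      rw [inv_inv] at e2
      rw [← mul_inv_eq_iff_eq_mul]
      conv_rhs => rw [← e2, ← e1]
      group
    rw [← g4, smul_smul, this, mul_smul, mul_smul, w.td, v.td]
  have := h.sh (d4 3 4 5 6 (by simp [D4])) (this 3 (by simp [D4])) (this 4 (by simp [D4])) (this 5 (by simp [D4]))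
    (this 6 (by simp [D4]))
  exact ne 1 0 (by simp) (by rw [← v.ta, ← w.tc, smul_smul, this, one_smul, w.tc])

theorem ne_seven [Finite Ω] (hd : D4 a b c d) : Nat.card Ω ≠ 7 := by
  classical
  intro n
  have ho : Odd (Nat.card Ω) := by rw [n]; decide
  have := Fintype.ofFinite Ω
  have mv : ∀ {t u : G} {c d x : Ω}, TU t u a b c d → t • x = x → a ≠ x ∧ b ≠ x := fun v e =>
    ⟨fun e1 => hd.1 (by rw [← v.ta, e1, e]), fun e1 => hd.1 (by rw [← v.tb, e1, e])⟩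
  have eq : ∀ {t u r s : G} {c d c' d' x y : Ω}, TU t u a b c d → TU r s a b c' d' → x ≠ y → t • x = x → t • y = y →
      r • x = x → r • y = y → t = r := fun v w n e1 e2 e3 e4 => h.ext ⟨hd.1, (mv v e1).1, (mv v e2).1, (mv v e1).2,
        (mv v e2).2, n⟩ (by rw [v.ta, w.ta]) (by rw [v.tb, w.tb]) (by rw [e1, e3]) (by rw [e2, e4])
  obtain ⟨t, u, v⟩ := h.exists_tu hd
  obtain ⟨e, e1, e2, e3⟩ := h.third_odd v ho
  obtain ⟨p, hp⟩ : ∃ p, p ∉ [a, b, c, d, e] := by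
    by_contra! n1
    have := [a, b, c, d, e].toFinset_card_le
    rw [Finset.eq_univ_of_forall fun x => List.mem_toFinset.2 (n1 x), Finset.card_univ, ← Nat.card_eq_fintype_card, n] at this
    simp at this
  simp only [List.mem_cons, List.not_mem_nil, or_false, not_or] at hp
  obtain ⟨p1, p2, p3, p4, p5⟩ := hp
  obtain ⟨d1, d2, d3, d4, d5, d6⟩ := id hd
  have tp : t • p ≠ p := fun f => t1 v (h.sh ⟨d6, e1.symm, Ne.symm p3, e2.symm, Ne.symm p4, Ne.symm p5⟩ v.tc v.td e3 f)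
  obtain ⟨r, s, w⟩ := h.exists_tu (⟨d1, d2, Ne.symm p1, d4, Ne.symm p2, Ne.symm p3⟩ : D4 a b c p)
  obtain ⟨x, x1, x2, x3⟩ := h.third_odd w ho
  have x4 : d ≠ x := fun f => tp (eq v w d6 v.tc v.td w.tc (f ▸ x3) ▸ w.td)
  have x5 : e ≠ x := fun f => tp (eq v w e1.symm v.tc e3 w.tc (f ▸ x3) ▸ w.td)
  obtain ⟨k, l, z⟩ := h.exists_tu (⟨d1, d3, Ne.symm p1, d5, Ne.symm p2, Ne.symm p4⟩ : D4 a b d p)
  obtain ⟨y, y1, y2, y3⟩ := h.third_odd z ho
  have y4 : c ≠ y := fun f => tp (eq v z d6 v.tc v.td (f ▸ y3) z.tc ▸ z.td)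
  have y5 : e ≠ y := fun f => tp (eq v z e2.symm v.td e3 z.tc (f ▸ y3) ▸ z.td)
  have y6 : x ≠ y := fun f => tp (eq v w d6 v.tc v.td w.tc (eq z w x2 (f ▸ y3) z.td x3 w.td ▸ z.tc) ▸ w.td)
  have : [a, b, c, d, e, p, x, y].Nodup := by
    simp [d1, d2, d3, d4, d5, d6, mv v e3, mv w x3, mv z y3, Ne.symm p1, Ne.symm p2, Ne.symm p3, Ne.symm p4, Ne.symm p5,
      e1.symm, e2.symm, x1.symm, x2.symm, x4, x5, y1.symm, y2.symm, y4, y5, y6]
  have := this.length_le_card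
  rw [← Nat.card_eq_fintype_card, n] at this
  simp at this

theorem bound (hd : D4 a b c d) : Finite Ω ∧ (Nat.card Ω ≤ 6 ∨ Nat.card Ω = 11) := by
  by_cases big : ∀ s : Finset Ω, s.card ≤ 6 → ∃ x, x ∉ s
  · obtain ⟨t, u, v⟩ := h.exists_tu hd
    obtain ⟨h1, h2⟩ := h.cover v big
    have := h.ne_seven hd
    have := h.le_of_even
    rw [Nat.even_iff] at this
    exact ⟨h1, by omega⟩
  · push Not at big
    obtain ⟨s, h1, h2⟩ := big
    have := Fintype.mk s h2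
    exact ⟨inferInstance, .inl (by rwa [Nat.card_eq_fintype_card, ← Finset.card_univ, ← Finset.eq_univ_of_forall h2])⟩

end S4T
end CfsgL0
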