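import Cfsg.Agent.L0.Sh4
import Cfsg.Agent.H8.MinNormal
import Cfsg.Agent.H8.PrimeDegree3
import Cfsg.Agent.H1.Misc1
import Cfsg.Agent.S0710

/-! Sharply `k`-transitive groups. -/

namespace CfsgL0
open Function Subgroup MulAction CfsgH2

universe u v

structure ShT (k : ℕ) (G Ω : Type*) [Group G] [MulAction G Ω] : Prop where
  tr : ∀ x y : Fin k → Ω, Injective x → Injective y → ∃ g : G, ∀ i, g • x i = y i
  sh : ∀ (g : G) (x : Fin k → Ω), Injective x → (∀ i, g • x i = x i) → g = 1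

variable {G Ω : Type*} [Group G] [MulAction G Ω] {k : ℕ}

theorem ShT.of (h : IsMultiplyPretransitive G Ω k) (hs : ∀ x : Fin k ↪ Ω, stabilizer G x = ⊥) : ShT k G Ω :=
  ⟨CfsgH8.isMultiplyPretransitive_iff_fun.1 h, fun g x hx e => (hs ⟨x, hx⟩).le (Embedding.ext e)⟩

theorem d4_iff {a b c d : Ω} : D4 a b c d ↔ Injective ![a, b, c, d] := by
  rw [← List.nodup_ofFn]
  simp [D4, and_assoc]

theorem ShT.s4t (h : ShT 4 G Ω) : S4T G Ω :=
  ⟨fun h1 h2 => by simpa [Fin.forall_fin_succ] using h.tr _ _ (d4_iff.1 h1) (d4_iff.1 h2),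
    fun h1 e1 e2 e3 e4 => h.sh _ _ (d4_iff.1 h1) (by simp [Fin.forall_fin_succ, *])⟩

theorem ShT.stab (h : ShT (k + 1) G Ω) (a : Ω) : ShT k (stabilizer G a) (SubMulAction.ofStabilizer G a) := by
  have inj : ∀ x : Fin k → SubMulAction.ofStabilizer G a, Injective x →
      Injective (Fin.cons a fun i => (x i : Ω) : Fin (k + 1) → Ω) := fun x hx =>
    Fin.cons_injective_iff.2 ⟨fun ⟨i, e⟩ => (x i).2 e, Subtype.val_injective.comp hx⟩
  refine ⟨fun x y hx hy => ?_, fun g x hx e => Subtype.ext (h.sh g _ (inj x hx) (Fin.forall_fin_succ.2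
    ⟨g.2, fun i => congrArg Subtype.val (e i)⟩))⟩
  obtain ⟨g, e⟩ := h.tr _ _ (inj x hx) (inj y hy)
  exact ⟨⟨g, e 0⟩, fun i => Subtype.ext (e i.succ)⟩

theorem ShT.card [Finite Ω] (h : ShT k G Ω) (hk : k ≤ Nat.card Ω) : Nat.card G = (Nat.card Ω).descFactorial k := by
  classical
  have := Fintype.ofFinite Ω
  obtain ⟨x⟩ := Embedding.nonempty_of_card_le (α := Fin k) (β := Ω) (by rwa [Fintype.card_fin, ← Nat.card_eq_fintype_card])
  rw [Nat.card_eq_of_bijective (fun g : G => g • x) ⟨fun g l e => (inv_mul_eq_one.1 (h.sh (l⁻¹ * g) x x.2 fun i => by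
    rw [mul_smul, inv_smul_eq_iff]; exact DFunLike.congr_fun e i)).symm, fun y => (h.tr x y x.2 y.2).imp fun g e =>
      Embedding.ext e⟩, Nat.card_eq_fintype_card, Fintype.card_embedding_eq, Fintype.card_fin, Nat.card_eq_fintype_card]

theorem ShT.faithful [Finite Ω] (h : ShT k G Ω) (hk : k ≤ Nat.card Ω) : FaithfulSMul G Ω := by
  have := Fintype.ofFinite Ω
  obtain ⟨x⟩ := Embedding.nonempty_of_card_le (α := Fin k) (β := Ω) (by rwa [Fintype.card_fin, ← Nat.card_eq_fintype_card])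
  exact ⟨fun {g l} e => (inv_mul_eq_one.1 (h.sh (l⁻¹ * g) x x.2 fun i => by rw [mul_smul, inv_smul_eq_iff, e])).symm⟩

theorem ShT.multi [Finite Ω] (h : ShT k G Ω) (hk : k ≤ Nat.card Ω) {j : ℕ} (hj : j ≤ k) : IsMultiplyPretransitive G Ω j :=
  have := CfsgH8.isMultiplyPretransitive_iff_fun.2 h.tr
  isMultiplyPretransitive_of_le hj hk

theorem ShT.four [Finite Ω] (h : ShT 4 G Ω) : Nat.card Ω ≤ 6 ∨ Nat.card Ω = 11 := by
  by_cases hk : 4 ≤ Nat.card Ω
  · have := Fintype.ofFinite Ω
    obtain ⟨x⟩ := Embedding.nonempty_of_card_le (α := Fin 4) (β := Ω) (by rwa [Fintype.card_fin, ← Nat.card_eq_fintype_card])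
    exact (h.s4t.bound (a := x 0) (b := x 1) (c := x 2) (d := x 3) (by simp [D4])).2
  omega

theorem sht_bound (k : ℕ) : ∀ (G : Type u) (Ω : Type v) [Group G] [MulAction G Ω] [Finite Ω], ShT (k + 4) G Ω →
    Nat.card Ω ≤ k + 6 ∨ (k ≤ 1 ∧ Nat.card Ω = k + 11) := by
  induction k with
  | zero => exact fun G Ω _ _ _ h => by simpa using h.four
  | succ k ih =>
    intro G Ω _ _ _ h
    rcases isEmpty_or_nonempty Ω with e | ⟨⟨a⟩⟩
    · simp
    have h1 := ih _ _ (ShT.stab (k := k + 4) h a)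
    have h2 := SubMulAction.nat_card_ofStabilizer_add_one_eq G a
    by_contra! n
    obtain rfl : k = 1 := by omega
    have h3 : Nat.card Ω = 13 := by omega
    classical
    have := Fintype.ofFinite Ω
    have := h.faithful (by omega)
    have := is_one_pretransitive_iff.1 (h.multi (by omega) (j := 1) (by omega))
    have : IsPretransitive (toPermHom G Ω).range Ω := ⟨fun x y => (exists_smul_eq G x y).elim fun g e => ⟨⟨_, g, rfl⟩, e⟩⟩
    refine Cfsg.Agent.S0710.result (Nat.card_eq_fintype_card.symm.trans h3) (toPermHom G Ω).range ?_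
    rw [← Nat.card_congr (MonoidHom.ofInjective toPerm_injective).toEquiv, h.card (by omega), h3]
    rfl

theorem ShT.m11 [Finite Ω] (h : ShT 4 G Ω) (hΩ : Nat.card Ω = 11) : IsSimpleGroup G ∧ Nat.card G = 7920 := by
  have c : Nat.card G = 7920 := by rw [h.card (by omega), hΩ]; rfl
  refine ⟨?_, c⟩
  have : Finite G := Nat.finite_of_card_ne_zero (by omega)
  have : Nontrivial G := Finite.one_lt_card_iff_nontrivial.1 (by omega)
  have := Fintype.ofFinite Ω
  have := h.faithful (by omega)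
  have := is_one_pretransitive_iff.1 (h.multi (by omega) (j := 1) (by omega))
  have := isPreprimitive_of_is_two_pretransitive (h.multi (by omega) (j := 2) (by omega))
  have : Fact (Nat.Prime 11) := ⟨by norm_num⟩
  have hα := Nat.card_eq_fintype_card.symm.trans hΩ
  have dv : ∀ K : Subgroup G, K.Normal → K ≠ ⊥ → 11 ∣ o[K] := fun K _ h0 => by
    have := CfsgH8.transitive_of_normal_of_primitive (Ω := Ω) K h0
    obtain ⟨a⟩ : Nonempty Ω := (Nat.card_pos_iff.1 (by omega)).1
    rw [CfsgH8.card_eq_mul_stabilizer a, hΩ]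
    exact dvd_mul_right _ _
  refine ⟨fun K hK => or_iff_not_imp_left.2 fun h0 => ?_⟩
  obtain ⟨σ, hσ, o⟩ := exists_prime_order_mem Fact.out (dv K hK h0)
  have s : Syl 11 (zpowers σ) ⊤ := .of_card le_top (by rw [Nat.card_zpowers, o, card_top, c]; decide +kernel)
  obtain ⟨e, he⟩ := CfsgH8.exists_coord_of_prime_degree hα o
  have c1 : o[N[zpowers σ]] ≤ 121 := by
    refine (Nat.card_le_card_of_injective (fun g : N[zpowers σ] => ((g : G) • e.symm 0, (g : G) • e.symm 1))
      fun g l f => ?_).trans (by rw [Nat.card_prod, hΩ])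
    obtain ⟨i, hi⟩ := conj_mem_of_norm g.2 (mem_zpowers σ)
    obtain ⟨j, hj⟩ := conj_mem_of_norm l.2 (mem_zpowers σ)
    obtain ⟨f1, f2⟩ := Prod.mk.inj f
    have g1 := CfsgH8.affine_of_normalizes e he hi.symm
    have l1 := CfsgH8.affine_of_normalizes e he hj.symm
    have := g1 (e.symm 1)
    rw [f2, l1, f1] at this
    exact Subtype.ext (eq_of_smul_eq_smul fun x : Ω => e.injective (by
      rw [g1, l1, f1, show (i : ZMod 11) = j by simpa using this.symm]))
  have c2 : o[N[zpowers σ]] = 55 := by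
    have h1 := N[zpowers σ].card_mul_index
    have h2 : N[zpowers σ].index % 11 = 1 := CfsgH1.Syl.card_sylow s ▸ card_sylow_modEq_one 11 G
    have h3 := card_mul_relIndex (le_normalizer : zpowers σ ≤ _)
    rw [Nat.card_zpowers, o] at h3
    rw [← h3] at h1 c1 ⊢
    generalize (zpowers σ).relIndex N[zpowers σ] = r at *
    have : r ≤ 11 := by omega
    interval_cases r <;> omega
  have l := zpowers_le.2 hσ
  have s1 := s.mono l le_top
  have h1 := card_dvd_of_le (inf_le_right : K ⊓ N[zpowers σ] ≤ _)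
  have h2 := card_mul_relIndex (le_inf l le_normalizer)
  rw [Nat.card_zpowers, o] at h2
  by_cases h3 : (zpowers σ).relIndex (K ⊓ N[zpowers σ]) = 1
  · have h4 := s1.npc_of_norm_le_cent ((relIndex_eq_one.1 h3).trans (le_cent_self inferInstance))
    have h5 := h4.sup_eq s1
    by_cases h6 : O[{11}ᶜ, K] = ⊥
    · rw [h6, bot_sup_eq] at h5
      rw [h5, top_le_iff.1 (top_le_norm_iff.2 hK), card_top] at c2
      omega
    · exact absurd rfl (piN_piCoreOf 11 Fact.out (dv _ (normal_of_top_le_norm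
        ((top_le_norm_iff.2 hK).trans norm_le_norm_piCoreOf)) h6))
  · have h4 : K ⊓ N[zpowers σ] = N[zpowers σ] := eq_of_le_of_card_ge inf_le_right (by
      rw [← h2, c2] at h1 ⊢
      have := Nat.le_of_dvd (by norm_num) h1
      generalize (zpowers σ).relIndex (K ⊓ N[zpowers σ]) = r at *
      have : r ≤ 5 := by omega
      interval_cases r <;> omega)
    rw [← s1.frattini_sup le_top (top_le_norm_iff.2 hK), top_inf_eq, sup_eq_left.2 (inf_eq_right.1 h4)]

theorem ShT.m12 [Finite Ω] (h : ShT 5 G Ω) (hΩ : Nat.card Ω = 12) : IsSimpleGroup G ∧ Nat.card G = 95040 := by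
  have c : Nat.card G = 95040 := by rw [h.card (by omega), hΩ]; rfl
  refine ⟨?_, c⟩
  have : Finite G := Nat.finite_of_card_ne_zero (by omega)
  have : Nontrivial G := Finite.one_lt_card_iff_nontrivial.1 (by omega)
  have := h.faithful (by omega)
  have h2 := h.multi (by omega) (j := 2) (by omega)
  have := isPreprimitive_of_is_two_pretransitive h2
  obtain ⟨a⟩ : Nonempty Ω := (Nat.card_pos_iff.1 (by omega)).1
  have := ((ShT.stab (k := 4) h a).m11 (by have := SubMulAction.nat_card_ofStabilizer_add_one_eq G a; omega)).1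
  refine ⟨fun K hK => or_iff_not_imp_left.2 fun h0 => ?_⟩
  have := CfsgH8.transitive_of_normal_of_primitive (Ω := Ω) K h0
  rcases (inferInstance : (K.subgroupOf (stabilizer G a)).Normal).eq_bot_or_eq_top with e | e
  · exfalso
    have r : ∀ g ∈ K, g • a = a → g = 1 := fun g h1 h2 => congrArg Subtype.val (e.le (show (⟨g, h2⟩ : stabilizer G a) ∈ _ from h1))
    have c1 := CfsgH8.card_eq_mul_stabilizer (G := K) a
    rw [hΩ] at c1
    obtain ⟨x, hx, ox⟩ := exists_prime_order_mem (H := K) Nat.prime_two (by omega)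
    obtain ⟨y, hy, oy⟩ := exists_prime_order_mem (H := K) Nat.prime_three (by omega)
    obtain ⟨g, g1, g2⟩ := is_two_pretransitive_iff.1 h2
      (show a ≠ x • a from fun e => by simp [r x hx e.symm] at ox) (show a ≠ y • a from fun e => by simp [r y hy e.symm] at oy)
    have := r (y⁻¹ * (g * x * g⁻¹)) (mul_mem (inv_mem hy) (hK.conj_mem x hx g)) (by
      rw [mul_smul, mul_smul, mul_smul, inv_smul_eq_iff.2 g1.symm, g2, inv_smul_smul])
    rw [inv_mul_eq_one.1 this, orderOf_conj'] at oy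
    omega
  · refine eq_top_iff.2 fun g _ => ?_
    obtain ⟨k, e1⟩ := exists_smul_eq K a (g • a)
    have : (k : G)⁻¹ * g ∈ K := subgroupOf_eq_top.1 e (by rw [mem_stabilizer_iff, mul_smul, inv_smul_eq_iff]; exact e1.symm)
    simpa using mul_mem k.2 this

end CfsgL0
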