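import Mathlib
import Cfsg.Prelude.Def_GeometricClasses
import Cfsg.Prelude.Def_LieClassical
set_option autoImplicit false
open Matrix
namespace CfsgL0.U5
def ad (a b : Fin 4) : Fin 4 := Fin.ofNat 4 (a.1 ^^^ b.1)
def mu (a b : Fin 4) : Fin 4 := Fin.ofNat 4 (2625168384 >>> (2 * (4 * a.1 + b.1)))
def B (i : ℕ) (r s : Fin 5) : Fin 4 := Fin.ofNat 4 (1315355033521836177794336972051517463682651925340891699130076632897010408613007890224071685546567010949470557034206762696554886268678799911865968502221518126787936339222636825488131314122755732877288627291295745 >>> (2 * (25 * i + 5 * r.1 + s.1)))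
def dot (r v : Fin 5 → Fin 4) : Fin 4 :=
  ad (ad (ad (ad (mu (r 0) (v 0)) (mu (r 1) (v 1))) (mu (r 2) (v 2))) (mu (r 3) (v 3))) (mu (r 4) (v 4))
def mv (i : ℕ) (v : Fin 5 → Fin 4) : Fin 5 → Fin 4 := fun r => dot (B i r) v
def hf (u v : Fin 5 → Fin 4) : Fin 4 := dot u fun i => mu (v i) (v i)
def Pm (v : Fin 5 → Fin 4) : Prop := ∀ i : Fin 11, hf (mv i.1 v) v ≠ 1
instance (v : Fin 5 → Fin 4) : Decidable (Pm v) := by unfold Pm; infer_instance
theorem c1 : ∀ a b c d e : Fin 4, Pm ![a,b,c,d,e] → Pm (mv 12 ![a,b,c,d,e]) := by decide +kernel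
theorem c2 : Pm ![0, 0, 1, 0, 1] ∧ ¬ Pm (mv 13 ![0, 0, 1, 0, 1]) := by decide +kernel
theorem c3 : ∀ i : Fin 11, ∀ r s, B (i.1 + 1) r s = dot (B i.1 r) fun k => B 1 k s := by decide +kernel
theorem c4 : ∀ r s, B 0 r s = (if r = s then 1 else 0) ∧ B 11 r s = B 0 r s ∧
    (dot (B 12 r) fun k => B 12 k s) = B 0 r s ∧ (dot (B 13 r) fun k => B 13 k s) = B 0 r s := by decide +kernel
theorem c5 : ∀ i : Fin 14, ∀ r s, (dot (fun k => mu (B i.1 k r) (B i.1 k r)) fun k => B i.1 k s) = B 0 r s := by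
  decide +kernel
theorem c6 : ∀ i : Fin 11, ∃ r s, (dot (B 12 r) fun k => B 1 k s) ≠ dot (B i.1 r) fun k => B 12 k s := by
  decide +kernel
theorem c7 : B 1 0 0 ≠ B 0 0 0 := by decide +kernel

variable {F : Type*} [Field F]
def ph (w : F) (a : Fin 4) : F := ((a.1 % 2 : ℕ) : F) + ((a.1 / 2 : ℕ) : F) * w
structure W (w : F) : Prop where
  two : (2 : F) = 0
  sq : w ^ 2 = w + 1
  surj : Function.Surjective (ph w)
variable {w : F}
theorem W.ad (h : W w) (a b : Fin 4) : ph w (ad a b) = ph w a + ph w b := by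
  have h2 := h.two
  fin_cases a <;> fin_cases b <;> simp [U5.ad, ph, Fin.ofNat] <;> grind
theorem W.mu (h : W w) (a b : Fin 4) : ph w (mu a b) = ph w a * ph w b := by
  have h2 := h.two
  have h3 := h.sq
  fin_cases a <;> fin_cases b <;> simp [U5.mu, ph, Fin.ofNat, Nat.shiftRight_eq_div_pow] <;> grind
theorem W.inj (h : W w) : Function.Injective (ph w) := by
  have h2 := h.two
  have h3 := h.sq
  intro a b
  fin_cases a <;> fin_cases b <;> simp [ph] <;> grind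
theorem W.dot (h : W w) (r v : Fin 5 → Fin 4) : ph w (dot r v) = ∑ i, ph w (r i) * ph w (v i) := by
  simp only [U5.dot, h.ad, h.mu, Fin.sum_univ_five]
def Mx (w : F) (i : ℕ) : Matrix (Fin 5) (Fin 5) F := fun r s => ph w (B i r s)
theorem W.mv (h : W w) (i : ℕ) (v : Fin 5 → Fin 4) : Mx w i *ᵥ (fun k => ph w (v k)) = fun k => ph w (mv i v k) := by
  ext r; simp only [U5.mv, h.dot]; rfl
theorem W.mul (h : W w) (i j : ℕ) (r s : Fin 5) : (Mx w i * Mx w j) r s = ph w (U5.dot (B i r) fun k => B j k s) := by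
  rw [h.dot]; rfl
theorem W.hf (h : W w) (u v : Fin 5 → Fin 4) :
    Cfsg.hermForm 5 F 2 (fun k => ph w (u k)) (fun k => ph w (v k)) = ph w (hf u v) := by
  simp only [U5.hf, h.dot, h.mu, Cfsg.hermForm, pow_two]
theorem M0 : Mx w 0 = 1 := by
  ext r s; rw [Mx, (c4 r s).1, Matrix.one_apply]; split_ifs <;> simp [ph]
theorem W.pow (h : W w) (i : ℕ) (hi : i ≤ 11) : Mx w 1 ^ i = Mx w i := by
  induction i with
  | zero => rw [pow_zero, M0]
  | succ i ih => rw [pow_succ, ih (by omega)]; ext r s; rw [h.mul, ← c3 ⟨i, by omega⟩]; rfl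
theorem W.p11 (h : W w) : Mx w 1 ^ 11 = 1 := by
  rw [h.pow 11 le_rfl, ← M0 (w := w)]; ext r s; exact congrArg (ph w) (c4 r s).2.1
theorem W.p12 (h : W w) : Mx w 12 * Mx w 12 = 1 := by
  rw [← M0 (w := w)]; ext r s; rw [h.mul, (c4 r s).2.2.1]; rfl
theorem W.p13 (h : W w) : Mx w 13 * Mx w 13 = 1 := by
  rw [← M0 (w := w)]; ext r s; rw [h.mul, (c4 r s).2.2.2]; rfl
theorem W.un (h : W w) (i : ℕ) (hi : i < 14) : ((Mx w i).map (· ^ 2))ᵀ * Mx w i = 1 := by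
  rw [← M0 (w := w)]; ext r s
  rw [Mx, ← c5 ⟨i, hi⟩, h.dot]; simp only [h.mu, Matrix.mul_apply, transpose_apply, map_apply, pow_two]; rfl
def PP (w : F) (v : Fin 5 → F) : Prop := ∀ i < 11, Cfsg.hermForm 5 F 2 (Mx w 1 ^ i *ᵥ v) v ≠ 1
theorem W.pp (h : W w) (v : Fin 5 → Fin 4) : PP w (fun k => ph w (v k)) ↔ Pm v := by
  have e : (1 : F) = ph w 1 := by simp [ph]
  refine ⟨fun a i b => a i.1 i.2 ?_, fun a i hi b => a ⟨i, hi⟩ ?_⟩
  · rw [h.pow _ i.2.le, h.mv, h.hf, b, e]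
  · rw [h.pow _ hi.le, h.mv, h.hf, e] at b; exact h.inj b
theorem W.t (h : W w) (v : Fin 5 → F) (a : PP w v) : PP w (Mx w 12 *ᵥ v) := by
  choose g hg using h.surj
  have e : v = fun k => ph w (![g (v 0), g (v 1), g (v 2), g (v 3), g (v 4)] k) := by
    ext k; fin_cases k <;> simp [hg]
  rw [e] at a ⊢
  rw [h.mv, h.pp]; exact c1 _ _ _ _ _ (h.pp _ |>.1 a)
theorem W.u (h : W w) : ∃ v, PP w v ∧ ¬ PP w (Mx w 13 *ᵥ v) :=
  ⟨_, (h.pp _).2 c2.1, by rw [h.mv, h.pp]; exact c2.2⟩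
theorem W.nn (h : W w) (i : ℕ) (hi : i < 11) : Mx w 12 * Mx w 1 ≠ Mx w 1 ^ i * Mx w 12 := fun e => by
  obtain ⟨r, s, a⟩ := c6 ⟨i, hi⟩
  rw [h.pow _ hi.le] at e
  exact a (h.inj (by rw [← h.mul, ← h.mul, e]))
theorem W.ne1 (h : W w) : Mx w 1 ≠ 1 := fun e => c7 (h.inj (by
  rw [← M0 (w := w)] at e; exact congrFun (congrFun e 0) 0))
end CfsgL0.U5
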