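import Cfsg.Agent.L0.U5m
set_option autoImplicit false
open Matrix Cfsg.Geo
namespace CfsgL0.U5
variable {F : Type*} [Field F] {w : F}
local notation "MM" => Matrix (Fin 5) (Fin 5) F
local notation "GG" => (Cfsg.GU 5 F 2 ⊓ specialLinear (Fin 5) F : Subgroup (GL (Fin 5) F))
local notation "f" => Cfsg.hermForm 5 F 2

theorem conj11 {G : Type*} [Group G] [Finite G] (h : ¬ 11 ^ 2 ∣ Nat.card G) {x y : G} (hx : orderOf x = 11)
    (hy : orderOf y = 11) : ∃ g : G, (Subgroup.zpowers x).map (MulAut.conj g).toMonoidHom = Subgroup.zpowers y := by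
  haveI : Fact (Nat.Prime 11) := ⟨by norm_num⟩
  have k : ∀ z : G, orderOf z = 11 → ∃ S : Sylow 11 G, (S : Subgroup G) = Subgroup.zpowers z := fun z hz => by
    have c : Nat.card (Subgroup.zpowers z) = 11 ^ 1 := by rw [Nat.card_zpowers, hz]; rfl
    obtain ⟨S, hS⟩ := (IsPGroup.of_card c).exists_le_sylow
    obtain ⟨n, hn⟩ := S.2.exists_card_eq
    refine ⟨S, (Subgroup.eq_of_le_of_card_ge hS ?_).symm⟩
    have : n < 2 := not_le.1 fun a => h ((pow_dvd_pow 11 a).trans (hn ▸ Subgroup.card_subgroup_dvd_card _))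
    rw [c]; exact hn.le.trans (Nat.pow_le_pow_right (by decide) (by omega))
  obtain ⟨S, hS⟩ := k x hx
  obtain ⟨T, hT⟩ := k y hy
  obtain ⟨g, hg⟩ := MulAction.exists_smul_eq G S T
  exact ⟨g, by rw [← hS, ← hT, ← hg]; rfl⟩

theorem exW [Fintype F] (hF : Fintype.card F = 2 ^ 2) : ∃ w : F, W w := by
  classical
  have h4 : ∀ a : F, a ^ 4 = a := fun a => by have := FiniteField.pow_card a; rwa [hF] at this
  have h2 : (2 : F) = 0 := by
    have : ((Fintype.card F : ℕ) : F) = 0 := FiniteField.cast_card_eq_zero F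
    rw [hF] at this; push_cast at this
    exact pow_eq_zero_iff two_ne_zero |>.1 (by linear_combination this)
  obtain ⟨w, -, hw⟩ := Finset.exists_mem_notMem_of_card_lt_card (s := ({0, 1} : Finset F)) (t := Finset.univ)
    (by rw [Finset.card_univ, hF]; exact Finset.card_le_two.trans_lt (by decide))
  simp only [Finset.mem_insert, Finset.mem_singleton, not_or] at hw
  have h3 : w ^ 2 = w + 1 := by
    have : w * ((w - 1) * (w ^ 2 + w + 1)) = 0 := by linear_combination h4 w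
    have := ((mul_eq_zero.1 ((mul_eq_zero.1 this).resolve_left hw.1)).resolve_left (sub_ne_zero.2 hw.2))
    linear_combination this - (w + 1) * h2
  have inj : Function.Injective (ph w) := by
    intro a b
    fin_cases a <;> fin_cases b <;> simp [ph] <;> grind
  exact ⟨w, h2, h3, ((Fintype.bijective_iff_injective_and_card _).2 ⟨inj, by rw [hF]; rfl⟩).2⟩

theorem exX [Fintype F] (hF : Fintype.card F = 2 ^ 2) (h : W w) (h4 : ∀ a : F, a ^ 4 = a) (K : Subalgebra F MM)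
    (h1 : IsFieldSubalgebra 5 K) (h2 : IsAdjointClosedFor f K) :
    ∃ x : GL (Fin 5) F, x ∈ GG ∧ orderOf x = 11 ∧ ∀ g ∈ subalgebraNormalizer K, ∃ j : ℕ, g * x * g⁻¹ = x ^ j := by
  classical
  haveI : Fact (Nat.Prime 11) := ⟨by norm_num⟩
  have hK : IsField K := ⟨⟨0, 1, zero_ne_one⟩, fun a b => Subtype.ext (h1.comm _ a.2 _ b.2), fun {a} ha => by
    obtain ⟨y, hy, e⟩ := h1.inv a a.2 fun e => ha (Subtype.ext e)
    exact ⟨⟨y, hy⟩, Subtype.ext e⟩⟩
  letI := hK.toField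
  have cK : Nat.card K = 1024 := by
    rw [Module.natCard_eq_pow_finrank (K := F), h1.finrank_eq, Nat.card_eq_fintype_card, hF]; rfl
  obtain ⟨k, hk⟩ := exists_prime_orderOf_dvd_card' (G := Kˣ) 11 (by rw [Nat.card_units, cK]; decide)
  have pr : IsPrimitiveRoot (k : K) 11 := by
    rw [IsPrimitiveRoot.coe_units_iff, ← hk]; exact IsPrimitiveRoot.orderOf k
  have tK : ∀ a : K, ta a.1 ∈ K := fun a => by
    obtain ⟨c, hc, e⟩ := h2 a a.2
    rwa [ta_uniq h.two h4 e]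
  generalize (k : K) = a at pr
  have a11 : a.1 ^ 11 = 1 := congrArg Subtype.val pr.pow_eq_one
  obtain ⟨j, hj, e⟩ := pr.eq_pow_of_pow_eq_one (ξ := ⟨ta a.1, tK a⟩) (Subtype.ext (by
    change ta a.1 ^ 11 = 1
    rw [← ta_pow h.two, a11, ta_one]))
  have e' : ta a.1 = a.1 ^ j := (congrArg Subtype.val e).symm
  have j1 : j ≠ 1 := by
    rintro rfl
    rw [pow_one] at e'
    have s := pr.geom_sum_eq_zero (by decide)
    simp only [Finset.sum_range_succ, Finset.sum_range_zero] at s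
    have p := pr.pow_eq_one
    let o : K := algebraMap F K w
    have o2 : (2 : K) = 0 := by rw [← map_ofNat (algebraMap F K) 2, h.two, map_zero]
    have o3 : o ^ 2 = o + 1 := by rw [← map_pow, h.sq, map_add, map_one]
    have q : (a + a ^ 3 + a ^ 4 + a ^ 5 + a ^ 9 - o) * (a + a ^ 3 + a ^ 4 + a ^ 5 + a ^ 9 - (o + 1)) = 0 := by
      grind
    have tt : ta (a + a ^ 3 + a ^ 4 + a ^ 5 + a ^ 9 : K).1 = (a + a ^ 3 + a ^ 4 + a ^ 5 + a ^ 9 : K).1 := by
      push_cast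
      simp only [ta_add h.two, ta_pow h.two, e']
    have h2 := h.two
    have h3 := h.sq
    rcases mul_eq_zero.1 q with r | r <;> rw [sub_eq_zero] at r <;> rw [r] at tt <;>
      have := congrFun (congrFun tt 0) 0 <;>
      simp [o, ta, Matrix.algebraMap_matrix_apply] at this <;> grind
  have e2 : a.1 ^ (j * j) = a.1 := by rw [pow_mul, ← e', ← ta_pow h.two, ← e', ta_ta h4]
  have j10 : j = 10 := by
    have : a ^ ((j * j) % 11) = a ^ 1 := by
      rw [← pow_eq_pow_mod _ pr.pow_eq_one, pow_one]; exact Subtype.ext e2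
    have := pr.pow_inj (Nat.mod_lt _ (by decide)) (by decide) this
    interval_cases j <;> simp_all
  subst j10
  let x : GL (Fin 5) F := ⟨a.1, a.1 ^ 10, by rw [← pow_succ', a11], by rw [← pow_succ, a11]⟩
  have x11 : x ^ 11 = 1 := Units.ext (by rw [Units.val_pow_eq_pow_val]; exact a11)
  refine ⟨x, memG h.two h4 x (by change ta a.1 * a.1 = 1; rw [e', ← pow_succ, a11]) 11 (.inr rfl) x11,
    orderOf_eq_prime x11 fun e => pr.ne_one (by decide) (Subtype.ext (congrArg Units.val e)), fun g hg => ?_⟩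
  obtain ⟨j, -, e⟩ := pr.eq_pow_of_pow_eq_one (ξ := ⟨(g * x * g⁻¹).1, (hg a.1).1 a.2⟩) (Subtype.ext (by
    change (g * x * g⁻¹).1 ^ 11 = 1
    rw [← Units.val_pow_eq_pow_val, conj_pow, x11]; simp))
  exact ⟨j, Units.ext (by rw [Units.val_pow_eq_pow_val]; exact (congrArg Subtype.val e).symm)⟩

theorem excl [Fintype F] (hF : Fintype.card F = 2 ^ 2) (K : Subalgebra F MM)
    (h1 : IsFieldSubalgebra 5 K) (h2 : IsAdjointClosedFor f K) (H : Subgroup (GL (Fin 5) F))
    (hH : IsMaximalIn GG H) (hle : H ≤ subalgebraNormalizer K) : False := by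
  classical
  haveI : Fact (Nat.Prime 11) := ⟨by norm_num⟩
  have h4 : ∀ a : F, a ^ 4 = a := fun a => by have := FiniteField.pow_card a; rwa [hF] at this
  obtain ⟨w, h⟩ := exW hF
  obtain ⟨x, hx, ox, nx⟩ := exX hF h h4 K h1 h2
  let y : GL (Fin 5) F := ⟨Mx w 1, Mx w 1 ^ 10, by rw [← pow_succ', h.p11], by rw [← pow_succ, h.p11]⟩
  have y11 : y ^ 11 = 1 := Units.ext (by rw [Units.val_pow_eq_pow_val]; exact h.p11)
  have hy : y ∈ GG := memG h.two h4 y (h.un 1 (by decide)) 11 (.inr rfl) y11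
  have oy : orderOf y = 11 := orderOf_eq_prime y11 fun e => h.ne1 (congrArg Units.val e)
  obtain ⟨⟨Q, hQ⟩, hg⟩ := conj11 (G := GG) (fun a => by
    have := a.trans (Subgroup.card_subgroup_dvd_card _)
    rw [Matrix.card_GL_field, hF] at this
    revert this; decide +kernel) (x := ⟨y, hy⟩) (y := ⟨x, hx⟩) (by rw [← oy]; exact (Subgroup.orderOf_coe _).symm)
    (by rw [← ox]; exact (Subgroup.orderOf_coe _).symm)
  have fin : ∀ z : GG, ∀ a ∈ Subgroup.zpowers z, ∃ n : ℕ, z ^ n = a := fun z a ha =>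
    (mem_powers_iff_mem_zpowers.2 ha)
  obtain ⟨m, hm⟩ := fin _ _ (hg ▸ Subgroup.mem_map_of_mem _ (Subgroup.mem_zpowers _))
  obtain ⟨z, hz, hn⟩ := hg.symm ▸ Subgroup.mem_zpowers (⟨x, hx⟩ : GG)
  obtain ⟨n, rfl⟩ := fin _ _ hz
  have hm' : x ^ m = Q * y * Q⁻¹ := congrArg Subtype.val hm
  have hn' : Q * y ^ n * Q⁻¹ = x := congrArg Subtype.val hn
  let o := (MulAut.conj Q⁻¹).mapSubgroup
  have ho : ∀ (K : Subgroup (GL (Fin 5) F)) x, x ∈ o K ↔ Q * x * Q⁻¹ ∈ K := fun K x => by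
    change x ∈ K.map (MulAut.conj Q⁻¹).toMonoidHom ↔ _
    rw [Subgroup.mem_map_equiv]; simp
  have hsp : o GG = GG := by
    ext x; rw [ho, Subgroup.mul_mem_cancel_right _ (inv_mem hQ), Subgroup.mul_mem_cancel_left _ hQ]
  refine core h h4 y rfl (o H) ⟨hsp ▸ o.lt_iff_lt.2 hH.1, fun M a b => ?_⟩ fun g hg => ?_
  · obtain ⟨M, rfl⟩ := o.surjective M
    rw [← hsp] at b ⊢
    rcases hH.2 M (o.le_iff_le.1 a) (o.le_iff_le.1 b) with r | r
    · left; rw [r]
    · right; rw [r]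
  · obtain ⟨j, hj⟩ := nx _ (hle ((ho H g).1 hg))
    refine ⟨n * j * m, ?_⟩
    have a : Q * g * Q⁻¹ * x ^ m * (Q * g * Q⁻¹)⁻¹ = (x ^ j) ^ m := by rw [← hj, conj_pow]
    rw [hm', ← hn', conj_pow, conj_pow, ← pow_mul, ← pow_mul] at a
    calc g * y * g⁻¹ = Q⁻¹ * (Q * g * Q⁻¹ * (Q * y * Q⁻¹) * (Q * g * Q⁻¹)⁻¹) * Q := by group
      _ = _ := by rw [a]; group
end CfsgL0.U5
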