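import Cfsg.Agent.L0.U5a
set_option autoImplicit false
open Matrix Cfsg.Geo
namespace CfsgL0.U5
variable {F : Type*} [Field F] {w : F}
local notation "MM" => Matrix (Fin 5) (Fin 5) F
local notation "GG" => (Cfsg.GU 5 F 2 ⊓ specialLinear (Fin 5) F : Subgroup (GL (Fin 5) F))
local notation "f" => Cfsg.hermForm 5 F 2
def ta (A : MM) : MM := (A.map (· ^ 2))ᵀ
theorem sq_add (h2 : (2 : F) = 0) (a b : F) : (a + b) ^ 2 = a ^ 2 + b ^ 2 := by linear_combination a * b * h2
theorem ta_adj (h2 : (2 : F) = 0) (h4 : ∀ a : F, a ^ 4 = a) (A : MM) (u v : Fin 5 → F) :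
    f (A *ᵥ u) v = f u (ta A *ᵥ v) := by
  have k : ∀ a : F, (a ^ 2) ^ 2 = a := fun a => by rw [← pow_mul]; exact h4 a
  simp only [Cfsg.hermForm, ta, mulVec, dotProduct, Fin.sum_univ_five, sq_add h2, mul_pow, transpose_apply,
    map_apply, k]
  ring
theorem ta_mul (h2 : (2 : F) = 0) (A C : MM) : ta (A * C) = ta C * ta A := by
  ext r s
  simp only [ta, Matrix.mul_apply, Fin.sum_univ_five, sq_add h2, mul_pow, transpose_apply, map_apply]
  ring
theorem ta_add (h2 : (2 : F) = 0) (A C : MM) : ta (A + C) = ta A + ta C := by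
  ext r s; simp only [ta, Matrix.add_apply, sq_add h2, transpose_apply, map_apply]
theorem ta_one : ta (1 : MM) = 1 := by
  ext r s; simp only [ta, transpose_apply, map_apply, Matrix.one_apply, eq_comm (a := s)]; split_ifs <;> simp
theorem ta_ta (h4 : ∀ a : F, a ^ 4 = a) (A : MM) : ta (ta A) = A := by
  ext r s; simp only [ta, transpose_apply, map_apply, ← pow_mul]; exact h4 _
theorem ta_pow (h2 : (2 : F) = 0) (A : MM) (n : ℕ) : ta (A ^ n) = ta A ^ n := by
  induction n with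
  | zero => simp [ta_one]
  | succ n ih => rw [pow_succ, ta_mul h2, ih, pow_succ']
theorem ta_uniq (h2 : (2 : F) = 0) (h4 : ∀ a : F, a ^ 4 = a) {A C : MM} (h : ∀ u v, f (A *ᵥ u) v = f u (C *ᵥ v)) :
    ta A = C := by
  ext r s
  have := (ta_adj h2 h4 A (Pi.single r 1) (Pi.single s 1)).symm.trans (h _ _)
  simp only [Cfsg.hermForm, mulVec_single_one, col_apply, Pi.single_apply, ite_mul, one_mul, zero_mul,
    Finset.sum_ite_eq', Finset.mem_univ, if_true] at this
  rw [← h4 (ta A r s), ← h4 (C r s), show 4 = 2 * 2 from rfl, pow_mul, pow_mul, this]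
theorem memG (h2 : (2 : F) = 0) (h4 : ∀ a : F, a ^ 4 = a) (g : GL (Fin 5) F) (h : ta g.1 * g.1 = 1) (n : ℕ)
    (hn : n = 2 ∨ n = 11) (hg : g ^ n = 1) : g ∈ GG := by
  refine ⟨fun u v => ?_, ?_⟩
  · change f (g.1 *ᵥ u) (g.1 *ᵥ v) = _
    rw [ta_adj h2 h4, mulVec_mulVec, h, one_mulVec]
  · change GeneralLinearGroup.det g = 1
    have a : (GeneralLinearGroup.det g) ^ n = 1 := by rw [← map_pow, hg, map_one]
    generalize GeneralLinearGroup.det g = d at a
    have b : d ^ 3 = 1 := mul_left_cancel (a := d) (Units.ext (by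
      simpa [← pow_succ'] using h4 d))
    rcases hn with rfl | rfl
    · rw [pow_succ, a, one_mul] at b; exact b
    · calc d = d ^ 11 * d := by rw [a, one_mul]
        _ = (d ^ 3) ^ 4 := by group
        _ = 1 := by rw [b, one_pow]
theorem core (h : W w) (h4 : ∀ a : F, a ^ 4 = a) (x : GL (Fin 5) F) (hx : x.1 = Mx w 1) (H : Subgroup (GL (Fin 5) F))
    (hH : IsMaximalIn GG H) (hn : ∀ g ∈ H, ∃ j : ℕ, g * x * g⁻¹ = x ^ j) : False := by
  have x11 : x ^ 11 = 1 := Units.ext (by rw [Units.val_pow_eq_pow_val, hx, h.p11]; rfl)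
  have pp : ∀ v, PP w v ↔ ∀ i : ℕ, f ((x ^ i).1 *ᵥ v) v ≠ 1 := fun v => by
    refine ⟨fun a i => ?_, fun a i _ => by simpa only [Units.val_pow_eq_pow_val, hx] using a i⟩
    rw [pow_eq_pow_mod i x11, Units.val_pow_eq_pow_val, hx]; exact a _ (Nat.mod_lt _ (by decide))
  let M : Subgroup (GL (Fin 5) F) :=
    { carrier := {g | ∀ v, PP w v ↔ PP w (g.1 *ᵥ v)}
      mul_mem' := fun {a b} ha hb v => by rw [Units.val_mul, ← mulVec_mulVec, ← ha, ← hb]
      one_mem' := fun v => by simp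
      inv_mem' := fun {a} ha v => by rw [ha (_ *ᵥ v), mulVec_mulVec, Units.mul_inv, one_mulVec] }
  have k : ∀ g ∈ H, ∀ v, PP w (g.1 *ᵥ v) → PP w v := fun g hg v a => by
    obtain ⟨j, hj⟩ := hn g hg
    rw [pp] at a ⊢
    intro i e
    refine a (j * i) ?_
    rw [pow_mul, ← hj, conj_pow, mulVec_mulVec, ← Units.val_mul, inv_mul_cancel_right, Units.val_mul,
      ← mulVec_mulVec]
    exact ((hH.1.le hg).1 _ _).trans e
  have hM : H ≤ M := fun g hg v => ⟨fun a => k g⁻¹ (inv_mem hg) _ (by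
    rwa [mulVec_mulVec, Units.inv_mul, one_mulVec]), k g hg v⟩
  let t : GL (Fin 5) F := ⟨Mx w 12, Mx w 12, h.p12, h.p12⟩
  let u : GL (Fin 5) F := ⟨Mx w 13, Mx w 13, h.p13, h.p13⟩
  have ht : t ∈ GG := memG h.two h4 t (h.un 12 (by decide)) 2 (.inl rfl) (Units.ext (by rw [pow_two]; exact h.p12))
  have hu : u ∈ GG := memG h.two h4 u (h.un 13 (by decide)) 2 (.inl rfl) (Units.ext (by rw [pow_two]; exact h.p13))
  rcases hH.2 (M ⊓ GG) (le_inf hM hH.1.le) inf_le_right with e | e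
  · have : t ∈ H := e ▸ ⟨fun v => ⟨h.t v, fun a => by
      have := h.t _ a
      rwa [mulVec_mulVec, show Mx w 12 * t.1 = 1 from h.p12, one_mulVec] at this⟩, ht⟩
    obtain ⟨j, hj⟩ := hn t this
    rw [pow_eq_pow_mod j x11, mul_inv_eq_iff_eq_mul] at hj
    refine h.nn (j % 11) (Nat.mod_lt _ (by decide)) ?_
    have := congrArg Units.val hj
    simpa only [Units.val_mul, Units.val_pow_eq_pow_val, hx] using this
  · obtain ⟨v, a, b⟩ := h.u
    exact b (((e.symm ▸ hu : u ∈ M ⊓ GG).1 v).1 a)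
end CfsgL0.U5
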